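import Cfsg.Agent.OddPre.PLengthOne
import Cfsg.Agent.PSolv.HallHigman
import Cfsg.Agent.Transfer.Hall
import Cfsg.Agent.SolvStruct.NilHall
import Cfsg.Agent.Lib.Element

/-!
In a solvable group of `q`-length one for all `q`, the normalizer of a nilpotent Hall subgroup
controls its fusion.
-/

set_option autoImplicit false
set_option linter.style.haveILetI false

namespace Cfsg.Agent.FT.BG10

open Subgroup

variable {L : Type*} [Group L] [Finite L]

/-- A nilpotent Hall subgroup lies in `O_{q',q}` for each of its primes. -/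
theorem nilpotent_hall_le_upper [Group.IsSolvable L] {K : Subgroup L}
    (hKn : Group.IsNilpotent K) (hK : (Nat.card K).Coprime K.index) {q : ℕ} [hq : Fact q.Prime]
    (hqK : q ∣ Nat.card K) (hl : Cfsg.PLengthLE q 1 L) :
    K ≤ (Cfsg.pCore q (L ⧸ Cfsg.pPrimeCore q L)).comap (QuotientGroup.mk' (Cfsg.pPrimeCore q L)) := by
  obtain ⟨Q, hQ⟩ := SolvStruct.hall_exists_sylow_le hK hqK
  set π := QuotientGroup.mk' (Cfsg.pPrimeCore q L) with hπ
  have hQim := OddPre.PLengthOne.map_sylow_eq_pCore hl Q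
  have hC : Subgroup.centralizer (Cfsg.pCore q (L ⧸ Cfsg.pPrimeCore q L) : Set (L ⧸ Cfsg.pPrimeCore q L)) ≤
      Cfsg.pCore q (L ⧸ Cfsg.pPrimeCore q L) :=
    PSolv.centralizer_pCore_le (PSolv.isPSolvable_of_isSolvable inferInstance)
      (Cores.pPrimeCore_quotient_pPrimeCore_eq_bot)
  intro x hx
  rw [← Element.pPart_mul_pComplPart q x]
  refine mul_mem ?_ ?_
  · rw [Subgroup.mem_comap, ← hQim]
    exact ⟨_, SolvStruct.nil_mem_sylow hKn hQ (Element.orderOf_pPart_eq_pow hq.1 x)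
      ((Subgroup.zpowers_le.2 hx) (Element.pPart_mem_zpowers q x)), rfl⟩
  · rw [Subgroup.mem_comap]
    refine hC ?_
    rw [← hQim, Subgroup.mem_centralizer_iff]
    rintro _ ⟨y, hy, rfl⟩
    rw [← map_mul, ← map_mul]
    congr 1
    refine SolvStruct.nil_commute_of_coprime hKn (hQ hy)
      ((Subgroup.zpowers_le.2 hx) (Element.pComplPart_mem_zpowers q x)) ?_
    obtain ⟨k, hk⟩ := Q.isPGroup'.exists_card_eq
    refine Nat.Coprime.coprime_dvd_left (Subgroup.orderOf_dvd_natCard _ hy) ?_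
    rw [hk]
    exact (Element.coprime_orderOf_pComplPart hq.1 x).symm.pow_left k

/-- Fusion in a nilpotent Hall subgroup is controlled by its normalizer. -/
theorem nilpotent_hall_fusion [Group.IsSolvable L] {K : Subgroup L}
    (hKn : Group.IsNilpotent K) (hK : (Nat.card K).Coprime K.index)
    (hl : ∀ q : ℕ, q.Prime → Cfsg.PLengthLE q 1 L) {x g : L} (hx : x ∈ K)
    (hgx : g * x * g⁻¹ ∈ K) :
    ∃ n ∈ normalizer (K : Set L), n * x * n⁻¹ = g * x * g⁻¹ := by
  let ι := {q : ℕ // q.Prime ∧ q ∣ Nat.card K}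
  let X : ι → Subgroup L := fun q =>
    (Cfsg.pCore q.1 (L ⧸ Cfsg.pPrimeCore q.1 L)).comap (QuotientGroup.mk' (Cfsg.pPrimeCore q.1 L))
  haveI hXn : ∀ q, (X q).Normal := fun q => inferInstance
  set W := ⨅ q, X q with hW
  set N := W ⊓ ⨅ q : ι, Cfsg.pPrimeCore q.1 L with hN
  haveI : W.Normal := Subgroup.normal_iInf_normal hXn
  haveI : (⨅ q : ι, Cfsg.pPrimeCore q.1 L).Normal :=
    Subgroup.normal_iInf_normal fun q => inferInstance
  haveI : N.Normal := Subgroup.normal_inf_normal _ _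
  have hKW : K ≤ W := le_iInf fun q =>
    haveI : Fact q.1.Prime := ⟨q.2.1⟩
    nilpotent_hall_le_upper hKn hK q.2.2 (hl q.1 q.2.1)
  have hNK : K ⊓ N = ⊥ := by
    refine Subgroup.eq_bot_of_card_eq _ (Nat.eq_one_iff_not_exists_prime_dvd.2 fun r hr hd => ?_)
    have hrK := hd.trans (Subgroup.card_dvd_of_le inf_le_left)
    haveI : Fact r.Prime := ⟨hr⟩
    refine hr.not_dvd_one ((Cores.pPrimeCore_coprime (p := r) (G := L)) ▸ Nat.dvd_gcd ?_ dvd_rfl)
    exact hd.trans (Subgroup.card_dvd_of_le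
      (inf_le_right.trans (inf_le_right.trans (iInf_le (fun q : ι => Cfsg.pPrimeCore q.1 L) ⟨r, hr, hrK⟩))))
  have hWKN : W ≤ K ⊔ N := by
    refine Subgroup.relIndex_eq_one.1 ?_
    by_contra hne
    obtain ⟨r, hr, hrd⟩ := Nat.exists_prime_and_dvd hne
    haveI : Fact r.Prime := ⟨hr⟩
    by_cases hrK : r ∣ Nat.card K
    · refine hr.not_dvd_one (hK ▸ Nat.dvd_gcd hrK ?_)
      exact (hrd.trans (Subgroup.relIndex_dvd_of_le_left _ le_sup_left)).trans
        (Subgroup.relIndex_dvd_index_of_le hKW)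
    · obtain ⟨R⟩ : Nonempty (Sylow r W) := inferInstance
      have hRN : (R : Subgroup W) ≤ N.subgroupOf W := by
        intro y hy
        rw [Subgroup.mem_subgroupOf]
        refine mem_inf.2 ⟨y.2, Subgroup.mem_iInf.2 fun q => ?_⟩
        haveI : Fact q.1.Prime := ⟨q.2.1⟩
        have hyX : (y : L) ∈ X q := (iInf_le X q) y.2
        obtain ⟨j, hj⟩ := R.isPGroup' ⟨y, hy⟩
        obtain ⟨i, hi⟩ := (Cores.pCore_isPGroup (p := q.1) (G := L ⧸ Cfsg.pPrimeCore q.1 L)) ⟨_, hyX⟩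
        rw [← QuotientGroup.eq_one_iff, ← orderOf_eq_one_iff]
        refine Nat.eq_one_of_dvd_coprimes (((Nat.coprime_primes hr q.2.1).2 fun h => hrK (h ▸ q.2.2)).pow j i) ?_
          (orderOf_dvd_of_pow_eq_one (congrArg Subtype.val hi :))
        refine (orderOf_map_dvd (QuotientGroup.mk' (Cfsg.pPrimeCore q.1 L)) (y : L)).trans ?_
        exact orderOf_dvd_of_pow_eq_one (congrArg (fun w : (R : Subgroup W) => ((w : W) : L)) hj :)
      refine R.not_dvd_index ((hrd.trans (Subgroup.relIndex_dvd_of_le_left _ le_sup_right)).trans ?_)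
      exact Subgroup.index_dvd_of_le hRN
  -- conjugate `K` back
  have hgK : K.map (MulAut.conj g).toMonoidHom ≤ W := by
    rintro _ ⟨y, hy, rfl⟩
    exact (inferInstance : W.Normal).conj_mem _ (hKW hy) g
  haveI := hKn
  obtain ⟨c, hcW, hc⟩ := Transfer.exists_conj_of_nilpotent_hall (Nat.card K) W K
    (K.map (MulAut.conj g).toMonoidHom) rfl
    (Subgroup.card_map_of_injective (MulAut.conj g).injective) hKW hgK hKn
    (Group.nilpotent_of_surjective ((MulAut.conj g).toMonoidHom.subgroupMap K)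
      (MonoidHom.subgroupMap_surjective _ _)) hK
  obtain ⟨k, hk, z, hz, rfl⟩ := Subgroup.mem_sup_of_normal_right.1 (hWKN hcW)
  have hz' : k * z * k⁻¹ ∈ N := (inferInstance : N.Normal).conj_mem z hz k
  set w := k * z * k⁻¹ with hw
  have hkz : k * z = w * k := by rw [hw]; group
  -- `n = w⁻¹ g`
  have hn : w⁻¹ * g ∈ normalizer (K : Set L) := by
    rw [Subgroup.mem_normalizer_iff_map_conj_eq]
    have hkK : K.map (MulAut.conj k).toMonoidHom = K :=
      Subgroup.mem_normalizer_iff_map_conj_eq.1 (Subgroup.le_normalizer hk)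
    have e : ∀ (a b : L), (K.map (MulAut.conj b).toMonoidHom).map (MulAut.conj a).toMonoidHom =
        K.map (MulAut.conj (a * b)).toMonoidHom := fun a b => by
      rw [Subgroup.map_map]
      congr 1
      ext y
      simp [mul_assoc]
    show K.map (MulAut.conj (w⁻¹ * g)).toMonoidHom = K
    rw [← e, hc, hkz, e, inv_mul_cancel_left, hkK]
  refine ⟨w⁻¹ * g, hn, ?_⟩
  set x' := (w⁻¹ * g) * x * (w⁻¹ * g)⁻¹ with hx'
  have hx'K : x' ∈ K := (Subgroup.mem_normalizer_iff.1 hn x).1 hx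
  have hy : g * x * g⁻¹ = w * x' * w⁻¹ := by rw [hx']; group
  have h1 : (g * x * g⁻¹) * x'⁻¹ ∈ K ⊓ N := by
    refine mem_inf.2 ⟨mul_mem hgx (inv_mem hx'K), ?_⟩
    rw [hy, show w * x' * w⁻¹ * x'⁻¹ = w * (x' * w⁻¹ * x'⁻¹) by group]
    exact mul_mem hz' ((inferInstance : N.Normal).conj_mem _ (inv_mem hz') x')
  rw [hNK, Subgroup.mem_bot, mul_inv_eq_one] at h1
  exact h1.symm

end Cfsg.Agent.FT.BG10
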